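import Cfsg.Agent.H696.OuterRC

/-!
# Automorphisms of order three of the exceptional groups normalise an `r`-subgroup (task 1196)

* `fixAt_twD4` : `³D₄(q)`, `q ≠ 2`;
* `fixAt_exc` : all exceptional groups of characteristic `r ≠ 3`, `³D₄(2)` excluded.
-/

set_option autoImplicit false
set_option linter.unusedSectionVars false

namespace Cfsg.Agent.H696.FixExc

open CoxeterSystem Cfsg Cfsg.Lie Cfsg.Lie.ChevalleyDatum
open Cfsg.Agent.ChevalleyStructure Cfsg.Agent.ChevalleyStructure.Elts Cfsg.Agent.ChevalleyStructure.CoxeterGeom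
  Cfsg.Agent.ChevalleyStructure.CoxeterGeomTypes Cfsg.Agent.ChevalleyStructure.NPerm
open Cfsg.Agent.Tits.Roots Cfsg.Agent.Tits.Core Cfsg.Agent.Nodes Cfsg.Agent.Nodes.Reps Cfsg.Agent.Nodes.BNOf
  Cfsg.Agent.Nodes.RGDChev Cfsg.Agent.Nodes.Bruhat Cfsg.Agent.Nodes.NormalForm
open Cfsg.Agent.KFacts.RgdField Cfsg.Agent.KFacts.RgdChevCoord
open Cfsg.Agent.BpExc Cfsg.Agent.BpExc.FamField Cfsg.Agent.BpExc.TorCent Cfsg.Agent.BpExc.TorChev Cfsg.Agent.BpExc.Tow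
  Cfsg.Agent.BpExc.TowChev Cfsg.Agent.BpExc.Fr Cfsg.Agent.BpExc.Pair Cfsg.Agent.BpExc.LangFr Cfsg.Agent.GpExc.Field
  Cfsg.Agent.BpExc.FamUntw Cfsg.Agent.BpExc.FamInst Cfsg.Agent.H469.Exc Cfsg.Agent.H459.Iface
open Cfsg.Agent.ChevalleyStructure.TwE6Basic (hE6 sg)
open Cfsg.Agent.ChevalleyStructure.GraphSymm (symmE6 symmD4a)
open Cfsg.Agent.CpAut.RgdUntw (fld)
open Cfsg.Agent.BpExc.FamTw.Gr Cfsg.Agent.BpExc.FamTw.Six

universe u v

variable {r : ℕ} [hr : Fact r.Prime]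

/-- **`³D₄(q)`.** -/
theorem model_twD4E {K : Type} [Field K] [Fintype K] [CharP K r] {q : ℕ} (hq : IsPrimePow q)
    (hK : Fintype.card K = q ^ 3) : ∃ m : ℕ, 0 < m ∧ q = r ^ m ∧
    ∃ (σ : MulAut ↥(chevD4.group (KK r))) (g : (Fin 4 → ℤ) ≃+ (Fin 4 → ℤ))
      (ι : ↥(twistedD4 K q) →* ↥(chevD4.group (KK r))),
      IsFrob r m σ ∧ Fr coxeterD4.toCoxeterSystem Nodes.RGDTwD4.hp.isCartan (TT chevD4 (KK r)) (XX chevD4 4 (KK r)) σ g ∧
      Finite ↥(fixedSubgroup σ) ∧ Function.Injective ι ∧ (∀ a, σ (ι a) = ι a) ∧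
      ∀ y, σ y = y → ∃ m : ℕ, m.Coprime r ∧ y ^ m ∈ ι.range := by
  obtain ⟨f⟩ := RowsUntw.exists_emb r K
  obtain ⟨m, hm0, hm⟩ := exists_eq_pow (r := r) hq hK
  have hk := locFin r
  obtain ⟨Φ, hΦe⟩ : ∃ Φ : KK r ≃+* KK r, Φ = frb (KK r) r m := ⟨_, rfl⟩
  have hΦ : ∀ a, Φ a = a ^ r ^ m := by
    intro a
    rw [hΦe]
    exact frb_apply _ r m a
  have hφ : ∀ a, (Φ : KK r →+* KK r) a = a ^ q := by
    intro a
    rw [hm]
    exact hΦ a
  have hγ := coe_gr (L := KK r) hD4 symmD4a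
  have hσ := SigFr.isFrob_symm_fld (p := r) symmD4a hγ hΦ
  have Fσ := (SigFr.fr_D4 hγ coxeterD4.toCoxeterSystem).mul
    (SigFr.fr_fld Nodes.RGDTwD4.hp coxeterD4.toCoxeterSystem Φ)
  have hfin := Sig.finite_fixed hk hm0 hσ
  have hsg : ∀ y : ↥(chevD4.group (KK r)),
      (((gr hD4 symmD4a * fld chevD4 Φ : MulAut ↥(chevD4.group (KK r))) y :
        ↥(chevD4.group (KK r))) : GL chevD4.Idx (KK r)) =
      D4Fixed.sig (Φ : KK r →+* KK r) (y : GL chevD4.Idx (KK r)) := by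
    intro y
    rfl
  let em4 : ↥(twistedD4 K q) →* ↥(chevD4.group (KK r)) :=
    (Cfsg.Agent.GpExc.Field.emb hD4 f).comp (Subgroup.inclusion (twisted_le_D4 hq hK))
  have hem : ∀ g : ↥(twistedD4 K q), ((em4 g : ↥(chevD4.group (KK r))) : GL chevD4.Idx (KK r)) =
      glMap chevD4 f (g : GL chevD4.Idx K) := fun _ => rfl
  have hinj : Function.Injective em4 :=
    (Cfsg.Agent.GpExc.Field.emb_injective hD4 f).comp (Subgroup.inclusion_injective _)
  have hfix : ∀ a, (gr hD4 symmD4a * fld chevD4 Φ : MulAut ↥(chevD4.group (KK r))) (em4 a) = em4 a := by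
    intro a
    apply Subtype.ext
    rw [hsg, hem]
    exact (EmbInst.twD4_fix (f := f) hq hK hφ a.2).2
  refine ⟨m, hm0, hm, _, _, em4, hσ, Fσ, hfin, hinj, hfix, fun y hy => ?_⟩
  have h1 : D4Fixed.sig (Φ : KK r →+* KK r) (y : GL chevD4.Idx (KK r)) = y := by rw [← hsg, hy]
  obtain ⟨g, hg, t, ht, e⟩ := EmbInst.twD4_split (f := f) hq hK hφ y.2 h1
  have ht' : t ∈ chevD4.group (KK r) := diagonal_le_group hD4 _ ht
  have hn := EmbInst.twD4_normalizer (f := f) hq hK hφ y.2 h1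
  refine pow_mem_range Nodes.RGDTwD4.hp em4 hfix hy (fun a => ?_) (a := ⟨g, hg⟩) (t := ⟨t, ht'⟩) ht
    (Subtype.ext e)
  obtain ⟨b, hb, hb'⟩ := (Subgroup.mem_normalizer_iff.1 hn (glMap chevD4 f a)).1 ⟨a, a.2, rfl⟩
  exact ⟨⟨b, hb⟩, Subtype.ext hb'⟩

/-- **`³D₄(q)`, `q ≠ 2`.** -/
theorem fixAt_twD4 {K : Type*} [Group K] [Finite K] [IsSimpleGroup K] (hr3 : r ≠ 3) {F : Type} [Field F] [Fintype F]
    [CharP F r] {q : ℕ} (hq : IsPrimePow q) (hF : Fintype.card F = q ^ 3) (hq2 : q ≠ 2) (e : K ≃* ↥(twistedD4 F q)) :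
    H959.Rad3.FixAt r K := by
  have hf3 : Fact (Nat.Prime 3) := ⟨Nat.prime_three⟩
  intro x hx hRC _
  have hx3 : x ^ 3 = 1 := by rw [← hx]; exact pow_orderOf_eq_one x
  obtain ⟨m, hm0, hm, σ, g, ι', hσ, Fσ, hfin, hι', hfix', hidx'⟩ := model_twD4E (r := r) hq hF
  set ι : K →* ↥(chevD4.group (KK r)) := ι'.comp e.toMonoidHom with hιd
  have hι : Function.Injective ι := hι'.comp e.injective
  have hfix : ∀ a, σ (ι a) = ι a := fun a => hfix' _
  have hidx : ∀ y, σ y = y → ∃ m : ℕ, m.Coprime r ∧ y ^ m ∈ ι.range := by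
    intro y hy
    obtain ⟨j, hj, a, ha⟩ := hidx' y hy
    exact ⟨j, hj, e.symm a, by
      change ι' (e (e.symm a)) = _
      rw [e.apply_symm_apply, ha]⟩
  -- an `r`-element
  obtain ⟨u, hu1, ⟨j, hj⟩, hσu, -⟩ := FixExcA.exists_unip_of_pow Nodes.RGDTwD4.hp hr3.symm (FixExcA.sub_D4 _) hm0 hσ Fσ
    (y := 1) (one_pow 3) (map_one σ)
  obtain ⟨n, hn, hnr⟩ := hidx u hσu
  obtain ⟨u', rfl⟩ := H469.Exc.mem_of_pow hj hn hnr
  have hur : u' ^ r ^ j = 1 := hι (by rw [map_pow, hj, map_one])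
  have hu'1 : u' ≠ 1 := fun h => hu1 (by rw [h, map_one])
  rcases (inferInstance : (Subgroup.center K).Normal).eq_bot_or_eq_top with hZ | hZ
  · have hN : OuterRC.NormAt Nodes.RGDTwD4.hp r 3 σ := by
      by_cases hr2 : r = 2
      · subst hr2
        refine OuterRC.normAt_two Nodes.RGDTwD4.hp (e := m) ?_ hσ Fσ
        by_contra hcon
        apply hq2
        have : m = 1 := by omega
        rw [hm, this, pow_one]
      · exact OuterRC.normAt_of_odd Nodes.RGDTwD4.hp (by norm_num) hr3.symm (fun h => absurd h hr2) hm0 hσ Fσ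
    by_cases hd : 3 ∣ Nat.card K
    · exact OuterRC.fixR_of_RC Nodes.RGDTwD4.hp hZ hr3.symm hd (FixExcA.sub_D4 _) hm0 hσ Fσ ι hι hfix hidx hN hx3 hRC
    · refine OuterRC.fixR_of_coprime hd ?_ hx3
      obtain ⟨i, -, hi⟩ := (Nat.dvd_prime_pow hr.out).1 (orderOf_dvd_of_pow_eq_one hur)
      have h2 : orderOf u' ≠ 1 := fun h => hu'1 (orderOf_eq_one_iff.1 h)
      have h3 : r ∣ orderOf u' := by
        rw [hi] at h2 ⊢
        exact dvd_pow_self r (fun h => h2 (by rw [h, pow_zero]))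
      exact h3.trans (orderOf_dvd_natCard u')
  · have hc : ∀ a b : K, a * b = b * a := fun a b => by
      have : b ∈ Subgroup.center K := by rw [hZ]; exact Subgroup.mem_top b
      exact Subgroup.mem_center_iff.1 this a
    have hn : (Subgroup.zpowers u').Normal := ⟨fun a ha b => by
      have : b * a * b⁻¹ = a := by rw [hc b a]; group
      rwa [this]⟩
    rcases hn.eq_bot_or_eq_top with h | h
    · exact absurd (Subgroup.zpowers_eq_bot.1 h) hu'1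
    · refine ⟨⊤, ?_, ?_, fun a _ => Subgroup.mem_top _⟩
      · rw [← h]
        exact fun h' => hu'1 (Subgroup.zpowers_eq_bot.1 h')
      · rw [← h]
        rintro ⟨_, i, rfl⟩
        refine ⟨j, Subtype.ext ?_⟩
        show (u' ^ i) ^ r ^ j = 1
        rw [← zpow_natCast, ← zpow_mul, mul_comm, zpow_mul, zpow_natCast, hur, one_zpow]

/-- **Task 1196.** -/
theorem fixAt_exc {K : Type*} [Group K] [Finite K] [IsSimpleGroup K] (h : Cfsg.IsExceptionalChevChar r K ∨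
    Cfsg.IsTwistedE6D4Char r K) (hr3 : r ≠ 3)
    (h2 : ∀ (F : Type) [Field F] [Fintype F], Fintype.card F = 8 → IsEmpty (K ≃* ↥(twistedD4 F 2))) :
    H959.Rad3.FixAt r K := by
  rcases h with h | ⟨F, _, _, _, q, hq, ⟨hK, ⟨e⟩⟩ | ⟨hK, ⟨e⟩⟩⟩
  · exact FixExcA.fixAt_chev h hr3
  · exact FixExcA.fixAt_twE6 hr3 hq hK e
  · refine fixAt_twD4 hr3 hq hK ?_ e
    rintro rfl
    exact (h2 F (by rw [hK]; norm_num)).false e

end Cfsg.Agent.H696.FixExc
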