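import Cfsg.Agent.H605.Exc.Hall

/-!
# Invariant Sylow subgroups (helper696)

* `exists_norm_outer` : `x` an element of order `p` normalising `N`, acting trivially on `N / R`, `R` solvable, and every
  `{p, r}`-subgroup of `N` above the Sylow `r`-subgroup `Q` of `N` normalises `Q` : `x` normalises a Sylow `r`-subgroup.
-/

set_option autoImplicit false

namespace Cfsg.Agent.H696.HallOuter

open Subgroup

variable {Γ : Type*} [Group Γ]

theorem mem_of_coprime {N : Subgroup Γ} {y : Γ} {m p : ℕ} (hm : m.Coprime p) (h1 : y ^ m ∈ N)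
    (h2 : y ^ p = 1) : y ∈ N := by
  have h3 : (m.gcd p : ℤ) = m * m.gcdA p + p * m.gcdB p := Nat.gcd_eq_gcd_ab m p
  rw [hm.gcd_eq_one] at h3
  have h4 : y = (y ^ m) ^ (m.gcdA p) := by
    calc y = y ^ (((1 : ℕ) : ℤ)) := by rw [Nat.cast_one, zpow_one]
      _ = y ^ ((m : ℤ) * m.gcdA p) * (y ^ ((p : ℤ) * m.gcdB p)) := by rw [h3, zpow_add]
      _ = (y ^ m) ^ (m.gcdA p) := by
        rw [zpow_mul, zpow_mul, zpow_natCast, zpow_natCast, h2, one_zpow, mul_one]
  rw [h4]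
  exact N.zpow_mem h1 _

/-- a subgroup closed under conjugation by a group of elements is normalised -/
theorem conj_sup {A B L : Subgroup Γ} (hA : ∀ g ∈ A, ∀ a ∈ L, g * a * g⁻¹ ∈ L)
    (hB : ∀ g ∈ B, ∀ a ∈ L, g * a * g⁻¹ ∈ L) : ∀ g ∈ A ⊔ B, ∀ a ∈ L, g * a * g⁻¹ ∈ L := by
  have h1 : A ⊔ B ≤ normalizer (L : Set Γ) := by
    rw [sup_le_iff]
    constructor
    · intro g hg
      rw [mem_normalizer_iff]
      intro a
      refine ⟨hA g hg a, fun h => ?_⟩
      have h2 := hA g⁻¹ (inv_mem hg) _ h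
      have e : g⁻¹ * (g * a * g⁻¹) * g⁻¹⁻¹ = a := by group
      rwa [e] at h2
    · intro g hg
      rw [mem_normalizer_iff]
      intro a
      refine ⟨hB g hg a, fun h => ?_⟩
      have h2 := hB g⁻¹ (inv_mem hg) _ h
      have e : g⁻¹ * (g * a * g⁻¹) * g⁻¹⁻¹ = a := by group
      rwa [e] at h2
  intro g hg a ha
  exact (mem_normalizer_iff.1 (h1 hg) a).1 ha

theorem exists_norm_outer [Finite Γ] {p r : ℕ} [hp : Fact p.Prime] [hr : Fact r.Prime] (hpr : p ≠ r)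
    {N R : Subgroup Γ} (hRN : R ≤ N) (hRn : ∀ m ∈ N, ∀ a ∈ R, m * a * m⁻¹ ∈ R) (hRs : Group.IsSolvable R)
    {x : Γ} (hx : x ^ p = 1) (hxN : ∀ m ∈ N, x * m * x⁻¹ ∈ N) (hxR : ∀ m ∈ N, m⁻¹ * (x * m * x⁻¹) ∈ R)
    {Q : Subgroup Γ} (hQN : Q ≤ N) (hQ : IsPGroup r Q)
    (hmax : ∀ Q' : Subgroup Γ, Q' ≤ N → IsPGroup r Q' → Q ≤ Q' → Q' ≤ Q)
    (hkey : ∀ E : Subgroup Γ, E ≤ N → Q ≤ E → (∀ z ∈ E, ∃ i j : ℕ, z ^ (r ^ i * p ^ j) = 1) →
      ∀ z ∈ E, ∀ q ∈ Q, z * q * z⁻¹ ∈ Q) :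
    ∃ Q' : Subgroup Γ, Q' ≤ N ∧ IsPGroup r Q' ∧ (Q ≠ ⊥ → Q' ≠ ⊥) ∧ ∀ q ∈ Q', x * q * x⁻¹ ∈ Q' := by
  classical
  have hxi : x⁻¹ = x ^ (p - 1) := by
    apply inv_eq_of_mul_eq_one_left
    rw [← pow_succ, Nat.sub_add_cancel hp.out.one_lt.le, hx]
  -- powers of `x` normalise `N`
  have hz : ∀ {L : Subgroup Γ}, (∀ a ∈ L, x * a * x⁻¹ ∈ L) → ∀ g ∈ zpowers x, ∀ a ∈ L, g * a * g⁻¹ ∈ L := by
    intro L hL
    have hn : ∀ i : ℕ, ∀ a ∈ L, x ^ i * a * (x ^ i)⁻¹ ∈ L := by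
      intro i
      induction i with
      | zero => intro a ha; simpa using ha
      | succ i ih =>
        intro a ha
        have h1 := hL _ (ih a ha)
        have e : x ^ (i + 1) * a * (x ^ (i + 1))⁻¹ = x * (x ^ i * a * (x ^ i)⁻¹) * x⁻¹ := by
          rw [pow_succ']; group
        rwa [e]
    intro g hg a ha
    have hfin : IsOfFinOrder x := isOfFinOrder_iff_pow_eq_one.2 ⟨p, hp.out.pos, hx⟩
    obtain ⟨i, rfl⟩ := (hfin.mem_zpowers_iff_mem_range_orderOf.1 hg |> Finset.mem_image.1).imp fun i hi => hi.2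
    exact hn i a ha
  set G : Subgroup Γ := N ⊔ zpowers x with hG
  have hNG : N ≤ G := le_sup_left
  have hxG : x ∈ G := le_sup_right (a := N) (mem_zpowers x)
  have hGN : ∀ g ∈ G, ∀ a ∈ N, g * a * g⁻¹ ∈ N := conj_sup
    (fun g hg a ha => N.mul_mem (N.mul_mem hg ha) (N.inv_mem hg)) (hz hxN)
  have hNn : (N.subgroupOf G).Normal := ⟨fun n hn g => by
    rw [mem_subgroupOf] at hn ⊢
    exact hGN g g.2 n hn⟩
  -- the solvable subgroup
  set L : Subgroup Γ := R ⊔ zpowers x with hL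
  have hRL : R ≤ L := le_sup_left
  have hxL : x ∈ L := le_sup_right (a := R) (mem_zpowers x)
  have hLG : L ≤ G := sup_le_sup hRN le_rfl
  have hxRc : ∀ a ∈ R, x * a * x⁻¹ ∈ R := by
    intro a ha
    have h1 := R.mul_mem ha (hxR a (hRN ha))
    have e : a * (a⁻¹ * (x * a * x⁻¹)) = x * a * x⁻¹ := by group
    rwa [e] at h1
  have hNL : ∀ m ∈ N, ∀ a ∈ L, m * a * m⁻¹ ∈ L := by
    intro m hm a ha
    have h1 : L.map (MulAut.conj m).toMonoidHom ≤ L := by
      rw [hL, Subgroup.map_sup, sup_le_iff]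
      constructor
      · rintro _ ⟨a, ha, rfl⟩
        exact hRL (hRn m hm a ha)
      · rw [MonoidHom.map_zpowers, zpowers_le]
        show m * x * m⁻¹ ∈ L
        have h2 := hxR m⁻¹ (N.inv_mem hm)
        have e : m * x * m⁻¹ = (m⁻¹⁻¹ * (x * m⁻¹ * x⁻¹)) * x := by group
        rw [e]
        exact L.mul_mem (hRL h2) hxL
    exact h1 ⟨a, ha, rfl⟩
  have hGL : ∀ g ∈ G, ∀ a ∈ L, g * a * g⁻¹ ∈ L := conj_sup hNL
    (fun g hg a ha => by
      have hg' : g ∈ L := le_sup_right (a := R) hg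
      exact L.mul_mem (L.mul_mem hg' ha) (L.inv_mem hg'))
  have hLn : (L.subgroupOf G).Normal := ⟨fun n hn g => by
    rw [mem_subgroupOf] at hn ⊢
    exact hGL g g.2 n hn⟩
  have hLs : Group.IsSolvable L := by
    have hRLn : (R.subgroupOf L).Normal := ⟨fun n hn g => by
      rw [mem_subgroupOf] at hn ⊢
      refine conj_sup (A := R) (B := zpowers x) (fun g hg a ha => R.mul_mem (R.mul_mem hg ha) (R.inv_mem hg))
        (hz hxRc) g g.2 n hn⟩
    have h1 : Group.IsSolvable ↥(R.subgroupOf L) :=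
      Group.isSolvable_of_surjective (f := (subgroupOfEquivOfLe hRL).symm.toMonoidHom)
        (subgroupOfEquivOfLe hRL).symm.surjective
    have h2 : Group.IsSolvable ↥((zpowers x).subgroupOf L) := by
      refine Group.isSolvable_of_comm fun a b => ?_
      obtain ⟨i, hi⟩ := mem_zpowers_iff.1 (mem_subgroupOf.1 a.2)
      obtain ⟨j, hj⟩ := mem_zpowers_iff.1 (mem_subgroupOf.1 b.2)
      apply Subtype.ext
      apply Subtype.ext
      show ((a : L) : Γ) * ((b : L) : Γ) = ((b : L) : Γ) * ((a : L) : Γ)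
      rw [← hi, ← hj]
      exact ((Commute.refl x).zpow_zpow i j).eq
    have h3 := H605.Exc.Hall.isSolvable_sup (R := R.subgroupOf L) (Q := (zpowers x).subgroupOf L) h1 h2
    have h4 : R.subgroupOf L ⊔ (zpowers x).subgroupOf L = ⊤ := by
      rw [eq_top_iff]
      intro a _
      have h5 : (a : Γ) ∈ R ⊔ zpowers x := a.2
      have h6 : (R.subgroupOf L ⊔ (zpowers x).subgroupOf L).map L.subtype = R ⊔ zpowers x := by
        rw [Subgroup.map_sup, subgroupOf_map_subtype, subgroupOf_map_subtype, inf_eq_left.2 hRL, inf_eq_left.2]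
        exact (zpowers_le.2 hxL)
      rw [← h6] at h5
      obtain ⟨b, hb, hb'⟩ := h5
      have : b = a := Subtype.ext hb'
      rwa [← this]
    rw [h4] at h3
    exact Group.isSolvable_of_surjective (f := (topEquiv (G := ↥L)).toMonoidHom) (topEquiv (G := ↥L)).surjective
  -- `r`-elements of `G` lie in `N`
  have hrel : ∀ g ∈ G, (∃ j : ℕ, g ^ r ^ j = 1) → g ∈ N := by
    rintro g hg ⟨j, hj⟩
    obtain ⟨n, hn, y, hy, rfl⟩ : ∃ n ∈ N, ∃ y ∈ zpowers x, n * y = g := by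
      have h1 : (⟨g, hg⟩ : G) ∈ N.subgroupOf G ⊔ (zpowers x).subgroupOf G := by
        have h6 : (N.subgroupOf G ⊔ (zpowers x).subgroupOf G).map G.subtype = N ⊔ zpowers x := by
          rw [Subgroup.map_sup, subgroupOf_map_subtype, subgroupOf_map_subtype, inf_eq_left.2 hNG, inf_eq_left.2]
          exact (zpowers_le.2 hxG)
        have h5 : g ∈ N ⊔ zpowers x := hg
        rw [← h6] at h5
        obtain ⟨b, hb, hb'⟩ := h5
        have : b = ⟨g, hg⟩ := Subtype.ext hb'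
        rwa [← this]
      obtain ⟨a, ha, b, hb, h2⟩ := Subgroup.mem_sup_of_normal_left.1 h1
      exact ⟨a, ha, b, hb, congrArg Subtype.val h2⟩
    have hyp : y ^ p = 1 := by
      obtain ⟨i, rfl⟩ := mem_zpowers_iff.1 hy
      rw [← zpow_natCast, ← zpow_mul, mul_comm, zpow_mul, zpow_natCast, hx, one_zpow]
    refine mem_of_coprime (p := r ^ j) (m := p) ?_ ?_ hj
    · exact ((Nat.coprime_primes hp.out hr.out).2 hpr).pow_right j
    · have hyN : ∀ b ∈ N, y * b * y⁻¹ ∈ N := fun b hb => hz hxN y hy b hb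
      have hn' : ∀ j : ℕ, ∀ b ∈ N, y ^ j * b * (y ^ j)⁻¹ ∈ N := by
        intro j
        induction j with
        | zero => intro b hb; simpa using hb
        | succ j ih =>
          intro b hb
          have h1 := hyN _ (ih b hb)
          have e : y ^ (j + 1) * b * (y ^ (j + 1))⁻¹ = y * (y ^ j * b * (y ^ j)⁻¹) * y⁻¹ := by
            rw [pow_succ']; group
          rwa [e]
      have key : ∀ j : ℕ, ∃ b ∈ N, (n * y) ^ j = b * y ^ j := by
        intro j
        induction j with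
        | zero => exact ⟨1, one_mem _, by simp⟩
        | succ j ih =>
          obtain ⟨b, hb, e⟩ := ih
          refine ⟨b * (y ^ j * n * (y ^ j)⁻¹), mul_mem hb (hn' j n hn), ?_⟩
          rw [pow_succ, e, pow_succ]
          group
      obtain ⟨b, hb, e⟩ := key p
      rw [e, hyp, mul_one]
      exact hb
  -- the Sylow subgroup
  have hQG : Q ≤ G := hQN.trans hNG
  have hle : ∀ {Q' : Subgroup ↥G}, IsPGroup r Q' → Q'.map G.subtype ≤ N := by
    rintro Q' hQ' _ ⟨g, hg, rfl⟩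
    obtain ⟨j, hj⟩ := hQ' ⟨g, hg⟩
    exact hrel _ g.2 ⟨j, congrArg (fun a => ((a : Q') : ↥G).1) hj⟩
  let S : Sylow r ↥G :=
    { toSubgroup := Q.subgroupOf G
      isPGroup' := hQ.comap_of_injective _ G.subtype_injective
      is_maximal' := by
        intro Q' hQ' hle'
        apply le_antisymm _ hle'
        intro g hg
        rw [mem_subgroupOf]
        refine hmax (Q'.map G.subtype) (hle hQ') (hQ'.map _) ?_ ⟨g, hg, rfl⟩
        intro q hq
        exact ⟨⟨q, hQG hq⟩, hle' (mem_subgroupOf.2 hq), rfl⟩ }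
  have hS : ∀ g : ↥G, g ∈ (S : Subgroup ↥G) ↔ (g : Γ) ∈ Q := fun g => mem_subgroupOf
  obtain ⟨P, hP⟩ := H605.Exc.Hall.exists_norm (G := ↥G) hpr (R := L.subgroupOf G)
    (Group.isSolvable_of_surjective (f := (subgroupOfEquivOfLe hLG).symm.toMonoidHom)
        (subgroupOfEquivOfLe hLG).symm.surjective) (y := ⟨x, hxG⟩) (mem_subgroupOf.2 hxL)
    ⟨1, by rw [pow_one]; exact Subtype.ext hx⟩ S (by
      intro E hSE hE z hz q hq
      rw [hS] at hq ⊢
      -- `E₀ = E ∩ N`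
      have hE₀ := hkey (E.map G.subtype ⊓ N) inf_le_right (by
          intro q hq
          exact ⟨⟨⟨q, hQG hq⟩, hSE ((hS _).2 hq), rfl⟩, hQN hq⟩) (by
          rintro _ ⟨⟨g, hg, rfl⟩, -⟩
          obtain ⟨i, j, h⟩ := hE g hg
          exact ⟨i, j, congrArg Subtype.val h⟩)
      have hzq : (z : Γ) * q * (z : Γ)⁻¹ ∈ E.map G.subtype ⊓ N := by
        refine ⟨⟨z * q * z⁻¹, E.mul_mem (E.mul_mem hz (hSE ((hS _).2 hq))) (E.inv_mem hz), rfl⟩, ?_⟩
        exact hGN z z.2 q (hQN hq)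
      -- an `r`-element normalising `Q` lies in `Q`
      have hPq : IsPGroup r (zpowers (z * q * z⁻¹)) := by
        obtain ⟨j, hj⟩ := hQ ⟨(q : Γ), hq⟩
        have hj' : (q : Γ) ^ r ^ j = 1 := congrArg Subtype.val hj
        rintro ⟨_, i, rfl⟩
        refine ⟨j, Subtype.ext (Subtype.ext ?_)⟩
        show ((((z * q * z⁻¹) ^ i : ↥G) : Γ)) ^ r ^ j = 1
        rw [Subgroup.coe_zpow, ← zpow_natCast, ← zpow_mul, mul_comm, zpow_mul, zpow_natCast]
        have e : (((z * q * z⁻¹ : ↥G) : Γ)) ^ r ^ j = 1 := by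
          show ((z : Γ) * q * (z : Γ)⁻¹) ^ r ^ j = 1
          rw [conj_pow, hj', mul_one, mul_inv_cancel]
        rw [e, one_zpow]
      have hwi := (E.map G.subtype ⊓ N).inv_mem hzq
      have hnorm : zpowers (z * q * z⁻¹) ≤ normalizer (S : Set ↥G) := by
        show zpowers (z * q * z⁻¹) ≤ normalizer ((S : Subgroup ↥G) : Set ↥G)
        rw [zpowers_le, mem_normalizer_iff]
        intro a
        constructor
        · intro ha
          have h1 := hE₀ _ hzq _ ((hS a).1 ha)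
          exact (hS _).2 h1
        · intro ha
          have h1 := hE₀ _ hwi _ ((hS _).1 ha)
          have e : ((z : Γ) * q * (z : Γ)⁻¹)⁻¹ * ((z * q * z⁻¹ * a * (z * q * z⁻¹)⁻¹ : ↥G) : Γ) *
              ((z : Γ) * q * (z : Γ)⁻¹)⁻¹⁻¹ = (a : Γ) := by
            show ((z : Γ) * q * (z : Γ)⁻¹)⁻¹ * ((z : Γ) * q * (z : Γ)⁻¹ * (a : Γ) * ((z : Γ) * q * (z : Γ)⁻¹)⁻¹) *
              ((z : Γ) * q * (z : Γ)⁻¹)⁻¹⁻¹ = (a : Γ)
            group
          rw [e] at h1
          exact (hS a).2 h1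
      have h1 := hPq.inf_normalizer_sylow S
      rw [inf_eq_left.2 hnorm] at h1
      have h2 : z * q * z⁻¹ ∈ zpowers (z * q * z⁻¹) ⊓ (S : Subgroup ↥G) := by
        rw [← h1]
        exact mem_zpowers _
      exact (hS _).1 h2.2)
  refine ⟨(P : Subgroup ↥G).map G.subtype, hle P.isPGroup', P.isPGroup'.map _, ?_, ?_⟩
  · intro hQ0 hP0
    apply hQ0
    have h1 : (P : Subgroup ↥G) = ⊥ := by
      rw [(Subgroup.map_eq_bot_iff_of_injective _ G.subtype_injective)] at hP0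
      exact hP0
    have h2 : Nat.card (S : Subgroup ↥G) = 1 := by
      rw [Nat.card_congr (S.equiv P).toEquiv, h1, card_bot]
    have h3 : (S : Subgroup ↥G) = ⊥ := card_eq_one.1 h2
    rw [eq_bot_iff]
    intro q hq
    have h4 : (⟨q, hQG hq⟩ : ↥G) ∈ (S : Subgroup ↥G) := (hS _).2 hq
    rw [h3, mem_bot] at h4
    exact mem_bot.2 (congrArg Subtype.val h4)
  · rintro _ ⟨q, hq, rfl⟩
    exact ⟨⟨x, hxG⟩ * q * ⟨x, hxG⟩⁻¹, hP q hq, rfl⟩

end Cfsg.Agent.H696.HallOuter
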