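import Cfsg.Agent.H696.GmnInv
import Cfsg.Agent.H467.OddNorm

/-!
# `E₇(q)`, `p ∣ q ^ 2 - 1` or `q` even: elements of order `p` central in a Sylow subgroup are real

* `central_real_of_inv` : the elements of order `p` with centraliser of index prime to `p`;
* `ev_e7_sq` : `Ev p E₇(q)`.
-/

set_option autoImplicit false
set_option linter.unusedSectionVars false

namespace Cfsg.Agent.H696.OnE7

open CoxeterSystem Subgroup Cfsg Cfsg.Lie Cfsg.Lie.ChevalleyDatum
open Cfsg.Agent.ChevalleyStructure Cfsg.Agent.ChevalleyStructure.Elts Cfsg.Agent.ChevalleyStructure.CoxeterGeom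
  Cfsg.Agent.ChevalleyStructure.CoxeterGeomTypes Cfsg.Agent.ChevalleyStructure.NPerm
open Cfsg.Agent.Tits.Roots Cfsg.Agent.Tits.Core Cfsg.Agent.Nodes Cfsg.Agent.Nodes.Reps Cfsg.Agent.Nodes.BNOf
  Cfsg.Agent.Nodes.RGDChev Cfsg.Agent.Nodes.Bruhat Cfsg.Agent.Nodes.NormalForm
open Cfsg.Agent.KFacts.RgdField Cfsg.Agent.KFacts.RgdChevCoord
open Cfsg.Agent.GpExc.Field (glMap emb coe_emb glMap_xG emb_injective coe_glMap)
open Cfsg.Agent.BpExc Cfsg.Agent.BpExc.TorCent Cfsg.Agent.BpExc.TorChev Cfsg.Agent.BpExc.Tow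
open Cfsg.Agent.BpExc.TowChev Cfsg.Agent.BpExc.Fr Cfsg.Agent.BpExc.LangFr
open Cfsg.Agent.BpExc.FamUntw Cfsg.Agent.BpExc.FamInst Cfsg.Agent.BpExc.FamExt Cfsg.Agent.BpExc.FamField
open Cfsg.Agent.BpExc.RowsUntw
open Cfsg.Agent.H696.GmnToral Cfsg.Agent.H696.GmnUntw Cfsg.Agent.H696.GmnTor Cfsg.Agent.H696.GmnInv
  Cfsg.Agent.H467.OddNorm

universe u v

section Gen

variable {D : ChevalleyDatum} {l : ℕ} {M : CoxeterMatrix (Fin l)} (hp : IsType D l M) {k : Type u} [Field k]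
  [IsAlgClosed k] (hk : LocFin k) (r : ℕ) [Fact r.Prime] [CharP k r] {W : Type v} [Group W] (cs : CoxeterSystem M W)

include hp cs hk r in
/-- a finite group containing the `p`-torsion of a torus and an element inverting it -/
theorem central_real_of_inv {d : ℕ} {B : Fin l → Fin l → ℤ} (hB : InvC D l d B) (hd : d ≠ 0) {p : ℕ}
    [hpp : Fact p.Prime] (hp2 : p ≠ 2) {ζ : k} (hζ : IsPrimitiveRoot ζ p) (hZ : center ↥(D.group k) = ⊥)
    {S : Type*} [Group S] [Finite S] (ι : S →* ↥(D.group k)) (hι : Function.Injective ι) (v : ↥(D.group k))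
    (hT : ∀ t ∈ TT D k, t ^ p = 1 → v * t * v⁻¹ ∈ ι.range) (y : S)
    (hy : ∀ t ∈ TT D k, v⁻¹ * ι y * v * t * (v⁻¹ * ι y * v)⁻¹ = t⁻¹) (z : S)
    (hz : ¬ p ∣ (centralizer ({z} : Set S)).index) : ∃ g : S, g * z * g⁻¹ = z⁻¹ := by
  have hfin : Finite W := finite_W hp cs
  let E : Subgroup S :=
    { carrier := {s | ∃ t ∈ TT D k, t ^ p = 1 ∧ ι s = v * t * v⁻¹}
      one_mem' := ⟨1, one_mem _, one_pow p, by rw [map_one]; group⟩
      mul_mem' := by
        rintro a b ⟨t, ht, h1, h2⟩ ⟨t', ht', h1', h2'⟩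
        refine ⟨t * t', mul_mem ht ht', ?_, by rw [map_mul, h2, h2']; group⟩
        rw [(show Commute t t' from TT_comm hp t ht t' ht').mul_pow, h1, h1', one_mul]
      inv_mem' := by
        rintro a ⟨t, ht, h1, h2⟩
        exact ⟨t⁻¹, inv_mem ht, by rw [inv_pow, h1, inv_one], by rw [map_inv, h2]; group⟩ }
  have hE : IsPGroup p E := by
    rintro ⟨s, t, ht, h1, h2⟩
    refine ⟨1, Subtype.ext (hι ?_)⟩
    show ι (s ^ p ^ 1) = ι 1
    rw [pow_one, map_pow, h2, map_one, conj_pow, h1]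
    group
  obtain ⟨Q, hQ⟩ := hE.exists_le_sylow
  obtain ⟨t, ht⟩ := exists_tors hp cs hB hd (hζ.ne_zero hpp.out.pos.ne')
  have htp : ∀ i, t i ^ p = 1 := fun i => by
    refine eq_one_TT hp cs hk r hZ (pow_mem (ht i).1 p) fun a ha => ?_
    rw [ch_pow hp cs hk r ha (ht i).1, (ht i).2 a ha, ← zpow_natCast, ← zpow_mul, mul_comm, zpow_mul, zpow_natCast,
      hζ.pow_eq_one, one_zpow]
  -- elements centralising `Q`
  have key : ∀ z : S, (∀ s ∈ Q, z * s = s * z) → y * z * y⁻¹ = z⁻¹ := by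
    intro z hc
    have h1 : ∀ i, (v⁻¹ * ι z * v) * t i = t i * (v⁻¹ * ι z * v) := by
      intro i
      obtain ⟨s, hs⟩ := hT _ (ht i).1 (htp i)
      have h2 := congrArg ι (hc s (hQ ⟨t i, (ht i).1, htp i, hs⟩))
      rw [map_mul, map_mul, hs] at h2
      have h3 : t i = v⁻¹ * (v * t i * v⁻¹) * v := by group
      rw [h3]
      calc v⁻¹ * ι z * v * (v⁻¹ * (v * t i * v⁻¹) * v) = v⁻¹ * (ι z * (v * t i * v⁻¹)) * v := by group
        _ = v⁻¹ * (v * t i * v⁻¹ * ι z) * v := by rw [h2]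
        _ = _ := by group
    have h2 := cent_tors hp hk r cs hpp.out hp2 hζ (fun i => (ht i).1) (fun i => (ht i).2) h1
    have h3 := hy _ h2
    apply hι
    rw [map_mul, map_mul, map_inv, map_inv]
    calc ι y * ι z * (ι y)⁻¹ = v * (v⁻¹ * ι y * v * (v⁻¹ * ι z * v) * (v⁻¹ * ι y * v)⁻¹) * v⁻¹ := by group
      _ = v * (v⁻¹ * ι z * v)⁻¹ * v⁻¹ := by rw [h3]
      _ = _ := by group
  -- a Sylow subgroup centralising `z`
  obtain ⟨R⟩ : Nonempty (Sylow p ↥(centralizer ({z} : Set S))) := inferInstance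
  have hR : IsPGroup p ↥((R : Subgroup ↥(centralizer ({z} : Set S))).map (centralizer ({z} : Set S)).subtype) :=
    R.isPGroup'.map _
  have hidx : ¬ p ∣ ((R : Subgroup ↥(centralizer ({z} : Set S))).map (centralizer ({z} : Set S)).subtype).index := by
    rw [Subgroup.index_map_subtype]
    exact fun h => ((hpp.out.dvd_mul.1 h).elim R.not_dvd_index hz)
  set R' := hR.toSylow hidx with hR'
  have hcard : (R : Subgroup ↥(centralizer ({z} : Set S))).map (centralizer ({z} : Set S)).subtype = R' := rfl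
  obtain ⟨g, hg⟩ := MulAction.exists_smul_eq S Q R'
  have hcen : ∀ s ∈ Q, (g⁻¹ * z * g) * s = s * (g⁻¹ * z * g) := by
    intro s hs
    have h1 : g * s * g⁻¹ ∈ R' := by
      rw [← hg]
      exact Subgroup.smul_mem_pointwise_smul s (MulAut.conj g) (Q : Subgroup S) hs
    have h1' : g * s * g⁻¹ ∈ (R : Subgroup ↥(centralizer ({z} : Set S))).map (centralizer ({z} : Set S)).subtype := by
      rw [hcard]; exact h1
    obtain ⟨x, -, hx⟩ := h1'
    have h2 : g * s * g⁻¹ * z = z * (g * s * g⁻¹) := by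
      rw [← hx]
      exact Subgroup.mem_centralizer_singleton_iff.1 x.2
    calc (g⁻¹ * z * g) * s = g⁻¹ * (z * (g * s * g⁻¹)) * g := by group
      _ = g⁻¹ * (g * s * g⁻¹ * z) * g := by rw [h2]
      _ = _ := by group
  refine ⟨g * y * g⁻¹, ?_⟩
  have h5 := key _ hcen
  calc g * y * g⁻¹ * z * (g * y * g⁻¹)⁻¹ = g * (y * (g⁻¹ * z * g) * y⁻¹) * g⁻¹ := by group
    _ = g * (g⁻¹ * z * g)⁻¹ * g⁻¹ := by rw [h5]
    _ = _ := by group

end Gen

section Rows

variable {D : ChevalleyDatum} {l : ℕ} {M : CoxeterMatrix (Fin l)} (hp : IsType D l M)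
variable {r : ℕ} [Fact r.Prime] {F : Type} [Field F] [Fintype F] [CharP F r]

include hp in
theorem real_sub {d : ℕ} {B : Fin l → Fin l → ℤ} (hB : InvC D l d B) (hd : d ≠ 0)
    (hZ : center ↥(D.group (AlgebraicClosure (ZMod r))) = ⊥)
    (hneg : ∃ w : M.Group, ∀ a, IsRoot M.toCoxeterSystem hp.isCartan a → rep M.toCoxeterSystem hp.isCartan w a = -a)
    {p : ℕ} [hpp : Fact p.Prime] (hp2 : p ≠ 2) (hpr : p ≠ r) (hpd : Nat.Coprime p d)
    (hq1 : p ∣ Fintype.card F - 1) (z : ↥(D.group F)) (hz : ¬ p ∣ (centralizer ({z} : Set ↥(D.group F))).index) :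
    ∃ g : ↥(D.group F), g * z * g⁻¹ = z⁻¹ := by
  obtain ⟨f⟩ := exists_emb r F
  obtain ⟨n, hn0, hn⟩ := exists_card (F := F) r
  have hk : LocFin (AlgebraicClosure (ZMod r)) := locFin_of_isAlgebraic r _
  have hq : Fintype.card F = r ^ n := by rw [← hn, Nat.card_eq_fintype_card]
  obtain ⟨w₀, hw₀⟩ := hneg
  obtain ⟨y, hy⟩ := exists_rp_range hp hk r M.toCoxeterSystem f w₀
  have : NeZero ((p : ℕ) : AlgebraicClosure (ZMod r)) := ⟨fun h0 => by
    rw [CharP.cast_eq_zero_iff (AlgebraicClosure (ZMod r)) r] at h0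
    exact hpr ((Nat.prime_dvd_prime_iff_eq Fact.out hpp.out).1 h0).symm⟩
  obtain ⟨ζ, hζ⟩ := HasEnoughRootsOfUnity.exists_primitiveRoot (AlgebraicClosure (ZMod r)) p
  refine central_real_of_inv hp hk r M.toCoxeterSystem hB hd hp2 hζ hZ (emb hp.inList f) (emb_injective hp.inList f) 1
    (fun t ht htp => ?_) y (fun t ht => ?_) z hz
  · rw [one_mul, inv_one, mul_one]
    have h1 : phi D (AlgebraicClosure (ZMod r)) r n t = t := by
      rw [phi_tors hp hk M.toCoxeterSystem hZ ht, ← hq]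
      obtain ⟨c, hc⟩ := hq1
      have h2 : Fintype.card F = p * c + 1 := by
        have := Fintype.card_pos (α := F)
        omega
      rw [h2, pow_succ, pow_mul, htp, one_pow, one_mul]
    obtain ⟨s, hs⟩ := pow_mem_range hp hk f r M.toCoxeterSystem hB hd hZ hq h1
    exact mem_of_pow htp hpd ⟨s, hs⟩
  · rw [inv_one, one_mul, mul_one]
    exact inv_of_rp hp hk r M.toCoxeterSystem hw₀ hZ hy ht

include hp in
theorem real_add {d : ℕ} {B : Fin l → Fin l → ℤ} (hB : InvC D l d B) (hd : d ≠ 0)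
    (hZ : center ↥(D.group (AlgebraicClosure (ZMod r))) = ⊥)
    (hneg : ∃ w : M.Group, ∀ a, IsRoot M.toCoxeterSystem hp.isCartan a → rep M.toCoxeterSystem hp.isCartan w a = -a)
    (hnb : ∀ j, ∃ i, cartanOf D l j i = -1) (hr2 : r ≠ 2)
    {p : ℕ} [hpp : Fact p.Prime] (hp2 : p ≠ 2) (hpr : p ≠ r) (hpd : Nat.Coprime p d)
    (hq1 : p ∣ Fintype.card F + 1) (x : ↥(D.group F)) (hx : ¬ p ∣ (centralizer ({x} : Set ↥(D.group F))).index) :
    ∃ g : ↥(D.group F), g * x * g⁻¹ = x⁻¹ := by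
  obtain ⟨f⟩ := exists_emb r F
  obtain ⟨n, hn0, hn⟩ := exists_card (F := F) r
  have hk : LocFin (AlgebraicClosure (ZMod r)) := locFin_of_isAlgebraic r _
  have hq : Fintype.card F = r ^ n := by rw [← hn, Nat.card_eq_fintype_card]
  obtain ⟨w₀, hw₀⟩ := hneg
  obtain ⟨y, hy⟩ := exists_rp_range hp hk r M.toCoxeterSystem f w₀
  have : NeZero ((p : ℕ) : AlgebraicClosure (ZMod r)) := ⟨fun h0 => by
    rw [CharP.cast_eq_zero_iff (AlgebraicClosure (ZMod r)) r] at h0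
    exact hpr ((Nat.prime_dvd_prime_iff_eq Fact.out hpp.out).1 h0).symm⟩
  obtain ⟨ζ, hζ⟩ := HasEnoughRootsOfUnity.exists_primitiveRoot (AlgebraicClosure (ZMod r)) p
  have hy2 := sq_eq_one hp hk r M.toCoxeterSystem hw₀ hZ hnb hy
  set n₀ := emb hp.inList f y with hn₀
  have hσn₀ : phi D (AlgebraicClosure (ZMod r)) r n n₀ = n₀ := phi_emb' hp f r hq y
  obtain ⟨z, hz⟩ := TorAll.exists_toral' hp r Nat.prime_two hr2.symm hy2
  obtain ⟨z', t', m, g', w, ht', h1, h2, hF, F', htt, -, -⟩ := frame_of_toral hp M.toCoxeterSystem hk hn0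
    (phi_isFrob r n) (phi_fr hp M.toCoxeterSystem r hk n) hσn₀ hz
  obtain ⟨u, hu, hu'⟩ := torus_lang hp M.toCoxeterSystem hk hZ hn0 hF F' ht'
  set v := z' * u * z'⁻¹ with hv
  have hn₀' : n₀ = z' * t' * z'⁻¹ := by rw [← h1]; group
  have hcomm : v * n₀ = n₀ * v := by
    rw [hv, hn₀']
    calc z' * u * z'⁻¹ * (z' * t' * z'⁻¹) = z' * (u * t') * z'⁻¹ := by group
      _ = z' * (t' * u) * z'⁻¹ := by rw [TT_comm hp u hu t' ht']
      _ = _ := by group
  have hσv : phi D (AlgebraicClosure (ZMod r)) r n v = v * n₀ := by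
    have h3 : phi D (AlgebraicClosure (ZMod r)) r n z' = z' * m := by rw [← h2]; group
    have h4 : u * t' = m * phi D (AlgebraicClosure (ZMod r)) r n u * m⁻¹ := by
      rw [hu']
      show u * (u⁻¹ * (m * phi D (AlgebraicClosure (ZMod r)) r n u * m⁻¹)) = _
      group
    rw [hv, map_mul, map_mul, map_inv, h3, hn₀']
    calc z' * m * phi D (AlgebraicClosure (ZMod r)) r n u * (z' * m)⁻¹
        = z' * (m * phi D (AlgebraicClosure (ZMod r)) r n u * m⁻¹) * z'⁻¹ := by group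
      _ = z' * (u * t') * z'⁻¹ := by rw [h4]
      _ = _ := by group
  refine central_real_of_inv hp hk r M.toCoxeterSystem hB hd hp2 hζ hZ (emb hp.inList f) (emb_injective hp.inList f) v
    (fun t ht htp => ?_) y (fun t ht => ?_) x hx
  · have h3 : phi D (AlgebraicClosure (ZMod r)) r n (v * t * v⁻¹) = v * t * v⁻¹ := by
      have h4 : phi D (AlgebraicClosure (ZMod r)) r n t = t⁻¹ := by
        rw [phi_tors hp hk M.toCoxeterSystem hZ ht, ← hq]
        obtain ⟨c, hc⟩ := hq1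
        rw [eq_inv_iff_mul_eq_one, ← pow_succ, hc, pow_mul, htp, one_pow]
      rw [map_mul, map_mul, map_inv, hσv, h4]
      have h5 := inv_of_rp hp hk r M.toCoxeterSystem hw₀ hZ hy (inv_mem ht)
      rw [inv_inv] at h5
      calc v * n₀ * t⁻¹ * (v * n₀)⁻¹ = v * (n₀ * t⁻¹ * n₀⁻¹) * v⁻¹ := by group
        _ = _ := by rw [h5]
    obtain ⟨s, hs⟩ := pow_mem_range hp hk f r M.toCoxeterSystem hB hd hZ hq h3
    refine mem_of_pow ?_ hpd ⟨s, hs⟩
    rw [conj_pow, htp]; group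
  · have h3 : v⁻¹ * n₀ * v = n₀ := by rw [mul_assoc, ← hcomm]; group
    rw [h3]
    exact inv_of_rp hp hk r M.toCoxeterSystem hw₀ hZ hy ht

end Rows

section E7

variable {p : ℕ} [hpp : Fact p.Prime] (hp2 : p ≠ 2) {r : ℕ} [hr : Fact r.Prime] (hpr : p ≠ r) (F : Type) [Field F]
  [Fintype F] [CharP F r]

include hp2 hpr in
/-- **`E₇(q)`, `q` even or `p ∣ q ^ 2 - 1`.** -/
theorem central_real_e7 (h : r = 2 ∨ p ∣ Fintype.card F - 1 ∨ p ∣ Fintype.card F + 1) (z : ↥(chevE7.group F))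
    (ho : orderOf z = p) (hz : ¬ p ∣ (centralizer ({z} : Set ↥(chevE7.group F))).index) :
    ∃ g : ↥(chevE7.group F), g * z * g⁻¹ = z⁻¹ := by
  have hZ := center_eq_bot_of_simple (S1054.result (F := AlgebraicClosure (ZMod r)) chevE7 (by simp))
  have hcop : Nat.Coprime p 2 := (Nat.coprime_primes hpp.out Nat.prime_two).2 hp2
  by_cases hr2 : r = 2
  · subst hr2
    exact isConj_iff.1 (isConj_inv_two e7T hZ (GmnNeg.negE7 e7T _) hpp.out hp2 (by rw [← ho]; exact pow_orderOf_eq_one z))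
  rcases h with h | h | h
  · exact absurd h hr2
  · exact real_sub e7T inv_E7 two_ne_zero hZ (GmnNeg.negE7 e7T _) hp2 hpr hcop h z hz
  · exact real_add e7T inv_E7 two_ne_zero hZ (GmnNeg.negE7 e7T _) (by rw [GmnNeg.cartanE7]; decide) hr2 hp2 hpr hcop
      h z hz

include hp2 hpr in
theorem ev_e7_sq (h : r = 2 ∨ p ∣ Fintype.card F - 1 ∨ p ∣ Fintype.card F + 1)
    (hd : p ∣ Nat.card ↥(chevE7.group F)) : Ev p ↥(chevE7.group F) :=
  Ev.of_real hp2 (GmnUntw.center_eq_bot_of_simple (S1054.result (F := F) chevE7 (by simp))) hd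
    fun z ho hz => central_real_e7 hp2 hpr F h z ho hz

end E7

end Cfsg.Agent.H696.OnE7
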