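import Cfsg.Agent.H696.FixExcA
import Cfsg.Agent.H696.FixNorm2
import Cfsg.Agent.H696.HallOuter

/-!
# Radical automorphisms of order `p` normalise an `r`-subgroup (helper696)

* `fixR_of_RC` : `K₀` in the fixed points of a Frobenius automorphism `σ` of `D.group k`, characteristic `r ≠ p`,
  `x : MulAut K₀` of order `p` with `RC x`: `FixR r x`, provided `p ∣ |K₀|`, the torus elements of order `p` centralise root
  groups and the `{r, p}`-subgroups of the centralisers above a Sylow `r`-subgroup normalise it.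
-/

set_option autoImplicit false
set_option linter.unusedSectionVars false

namespace Cfsg.Agent.H696.OuterRC

open CoxeterSystem Subgroup Cfsg Cfsg.Lie Cfsg.Lie.ChevalleyDatum
open Cfsg.Agent.ChevalleyStructure Cfsg.Agent.ChevalleyStructure.Elts Cfsg.Agent.ChevalleyStructure.CoxeterGeom
  Cfsg.Agent.ChevalleyStructure.CoxeterGeomTypes Cfsg.Agent.ChevalleyStructure.NPerm
open Cfsg.Agent.Tits.Roots Cfsg.Agent.Tits.Core Cfsg.Agent.Nodes Cfsg.Agent.Nodes.Reps Cfsg.Agent.Nodes.BNOf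
  Cfsg.Agent.Nodes.RGDChev Cfsg.Agent.Nodes.Bruhat Cfsg.Agent.Nodes.NormalForm
open Cfsg.Agent.KFacts.RgdField Cfsg.Agent.KFacts.RgdChevCoord
open Cfsg.Agent.BpExc Cfsg.Agent.BpExc.FamField Cfsg.Agent.BpExc.TorCent Cfsg.Agent.BpExc.TorChev Cfsg.Agent.BpExc.Tow
  Cfsg.Agent.BpExc.TowChev Cfsg.Agent.BpExc.Fr Cfsg.Agent.BpExc.Pair Cfsg.Agent.BpExc.LangFr Cfsg.Agent.GpExc.Field
  Cfsg.Agent.BpExc.FamUntw Cfsg.Agent.BpExc.FamInst Cfsg.Agent.H459.Iface Cfsg.Agent.H459.Rad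
open Cfsg.Agent.H469.Exc (KK locFin)
open Cfsg.Agent.H696.FixExcA (Sub)
open Cfsg.Agent.SignalizersComponents.ComponentExists (isSolvable_map)

universe u v w

/-- an automorphism of order `p` centralises an element of order `p` -/
theorem exists_fixed {K₀ : Type w} [Group K₀] [Finite K₀] {p : ℕ} [hpf : Fact p.Prime] (hd : p ∣ Nat.card K₀)
    {x : MulAut K₀} (hx : x ^ p = 1) : ∃ c : K₀, orderOf c = p ∧ x c = c := by
  have hxp : IsPGroup p (zpowers x) := by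
    rintro ⟨_, i, rfl⟩
    refine ⟨1, Subtype.ext ?_⟩
    show (x ^ i) ^ p ^ 1 = 1
    rw [pow_one, ← zpow_natCast, ← zpow_mul, mul_comm, zpow_mul, zpow_natCast, hx, one_zpow]
  have h1 := hxp.card_modEq_card_fixedPoints K₀
  let C : Subgroup K₀ :=
    { carrier := {a | x a = a}
      one_mem' := map_one x
      mul_mem' := fun {a b} ha hb => by
        show x (a * b) = a * b
        rw [map_mul, show x a = a from ha, show x b = b from hb]
      inv_mem' := fun {a} ha => by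
        show x a⁻¹ = a⁻¹
        rw [map_inv, show x a = a from ha] }
  have hC : Nat.card C = Nat.card (MulAction.fixedPoints (zpowers x) K₀) := by
    refine Nat.card_congr (Equiv.subtypeEquivRight fun a => ?_)
    constructor
    · rintro ha ⟨y, hy⟩
      have h2 : zpowers x ≤ MulAction.stabilizer (MulAut K₀) a := zpowers_le.2 ha
      exact h2 hy
    · intro ha
      exact ha ⟨x, mem_zpowers x⟩
  have h2 : p ∣ Nat.card C := by
    rw [hC]
    exact (h1.dvd_iff dvd_rfl).1 hd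
  obtain ⟨c, hc⟩ := exists_prime_orderOf_dvd_card' (G := C) p h2
  exact ⟨c, by rw [← hc, Subgroup.orderOf_coe], c.2⟩

theorem conj_inj {K₀ : Type w} [Group K₀] (hZ : center K₀ = ⊥) :
    Function.Injective (MulAut.conj : K₀ →* MulAut K₀) := by
  rw [injective_iff_map_eq_one]
  intro a ha
  have h1 : a ∈ center K₀ := by
    rw [mem_center_iff]
    intro g
    have h2 := DFunLike.congr_fun ha g
    rw [MulAut.conj_apply, MulAut.one_apply] at h2
    exact (mul_inv_eq_iff_eq_mul.1 h2).symm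
  rwa [hZ, mem_bot] at h1

theorem aut_conj {K₀ : Type w} [Group K₀] (x : MulAut K₀) (a : K₀) :
    x * MulAut.conj a * x⁻¹ = MulAut.conj (x a) := by
  ext b
  show x (a * (x⁻¹ b) * a⁻¹) = x a * b * (x a)⁻¹
  rw [map_mul, map_mul, map_inv]
  congr 2
  exact MulEquiv.apply_symm_apply x b

variable {D : ChevalleyDatum} {l : ℕ} {M : CoxeterMatrix (Fin l)} (hp : IsType D l M) {r : ℕ} [hr : Fact r.Prime]

/-- `{r, p}`-subgroups of `C(y)^σ` above a Sylow `r`-subgroup normalise it -/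
def NormAt (hp : IsType D l M) (r p : ℕ) [Fact r.Prime] (σ : MulAut ↥(D.group (KK r))) : Prop :=
  ∀ y : ↥(D.group (KK r)), σ y = y → y ^ p = 1 → ∀ z : ↥(D.group (KK r)), z * y * z⁻¹ ∈ TT D (KK r) →
    (Sx M.toCoxeterSystem hp.isCartan (ch hp) (z * y * z⁻¹)).Nonempty →
    ∃ V : Subgroup ↥(D.group (KK r)),
      (∃ Q : Sylow r ↥(fixC σ y), (Q : Subgroup ↥(fixC σ y)) = V.subgroupOf (fixC σ y)) ∧
      (∃ u ∈ V, u ∈ fixC σ y ∧ u ≠ 1) ∧
      ∀ E : Subgroup ↥(D.group (KK r)), E ≤ fixC σ y → V ⊓ fixC σ y ≤ E →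
        (∀ z ∈ E, ∃ i j : ℕ, z ^ (r ^ i * p ^ j) = 1) → ∀ y ∈ E, y ∈ Subgroup.normalizer (V : Set ↥(D.group (KK r)))

theorem normAt_of_odd {p : ℕ} [hpf : Fact p.Prime] (hp2 : p ≠ 2) (hpr : p ≠ r) (h3 : r = 2 → p ≠ 3)
    {σ : MulAut ↥(D.group (KK r))} {g : (Fin l → ℤ) ≃+ (Fin l → ℤ)} {e : ℕ} (he : 0 < e) (hσ : IsFrob r e σ)
    (Fσ : Fr M.toCoxeterSystem hp.isCartan (TT D (KK r)) (XX D l (KK r)) σ g) [Finite ↥(fixedSubgroup σ)] :
    NormAt hp r p σ := fun _ hσy hyp _ hz hne =>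
  H605.Exc.FixNorm.fixNorm hp M.toCoxeterSystem (locFin r) hpf.out hpr he hσ Fσ hσy hyp hz hne hpf.out hp2 h3

theorem normAt_two [Fact (Nat.Prime 2)] {σ : MulAut ↥(D.group (KK 2))} {g : (Fin l → ℤ) ≃+ (Fin l → ℤ)} {e : ℕ}
    (he : 2 ≤ e) (hσ : IsFrob 2 e σ)
    (Fσ : Fr M.toCoxeterSystem hp.isCartan (TT D (KK 2)) (XX D l (KK 2)) σ g) [Finite ↥(fixedSubgroup σ)] :
    NormAt hp 2 3 σ := fun _ hσy hyp _ hz hne =>
  FixNorm2.fixNorm2 hp M.toCoxeterSystem (locFin 2) Nat.prime_three (by norm_num) he hσ Fσ hσy hyp hz hne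

variable {K₀ : Type w} [Group K₀]

/-- **Radical automorphisms of order `p`.** -/
theorem fixR_of_RC [Finite K₀] (hZ : center K₀ = ⊥) {p : ℕ} [hpf : Fact p.Prime] (hpr : p ≠ r)
    (hd : p ∣ Nat.card K₀) (hreg : Sub hp r p)
    {σ : MulAut ↥(D.group (KK r))} {g : (Fin l → ℤ) ≃+ (Fin l → ℤ)} {e : ℕ} (he : 0 < e) (hσ : IsFrob r e σ)
    (Fσ : Fr M.toCoxeterSystem hp.isCartan (TT D (KK r)) (XX D l (KK r)) σ g) [Finite ↥(fixedSubgroup σ)]
    (ι : K₀ →* ↥(D.group (KK r))) (hι : Function.Injective ι) (hfix : ∀ a, σ (ι a) = ι a)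
    (hidx : ∀ y, σ y = y → ∃ m : ℕ, m.Coprime r ∧ y ^ m ∈ ι.range) (hN : NormAt hp r p σ)
    {x : MulAut K₀} (hx : x ^ p = 1) (hRC : RC x) : FixR r x := by
  classical
  obtain ⟨c, hc, hxc⟩ := exists_fixed hd hx
  have hcp : c ^ p = 1 := by rw [← hc]; exact pow_orderOf_eq_one c
  have hc1 : c ≠ 1 := by
    rintro rfl
    rw [orderOf_one] at hc
    exact hpf.out.one_lt.ne hc
  set C := centralizer ({c} : Set K₀) with hCdef
  have hcC : ∀ {m : K₀}, m ∈ C ↔ m * c = c * m := mem_centralizer_singleton_iff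
  have hCtop : C ≠ ⊤ := by
    intro h3
    apply hc1
    have h4 : c ∈ center K₀ := by
      rw [mem_center_iff]
      intro g
      have : g ∈ C := by rw [h3]; exact mem_top g
      exact hcC.1 this
    rwa [hZ, mem_bot] at h4
  have hxC : ∀ m ∈ C, x m ∈ C := by
    intro m hm
    rw [hcC] at hm ⊢
    have h1 := congrArg x hm
    rwa [map_mul, map_mul, hxc] at h1
  have hR := hRC C hCtop hxC
  -- the toral conjugate
  obtain ⟨z, hz⟩ := TorAll.exists_toral' hp r hpf.out hpr (y := ι c) (by rw [← map_pow, hcp, map_one])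
  have hz' : z⁻¹ * ι c * z⁻¹⁻¹ ∈ TT D (KK r) := by rwa [inv_inv]
  have hzp : (z⁻¹ * ι c * z⁻¹⁻¹) ^ p = 1 := by rw [conj_pow, ← map_pow, hcp, map_one, mul_one, mul_inv_cancel]
  obtain ⟨V, ⟨Q, hQ⟩, ⟨u, huV, huC, hu1⟩, hkey⟩ := hN (ι c) (hfix c) (by rw [← map_pow, hcp, map_one]) z⁻¹ hz'
    (hreg _ hz' hzp)
  have hmem : ∀ m ∈ C, ι m ∈ fixC σ (ι c) := fun m hm => mem_fixC.2 ⟨hfix _, by
    rw [← map_mul, ← map_mul, hcC.1 hm]⟩
  have hmemQ : ∀ w : ↥(fixC σ (ι c)), w ∈ (Q : Subgroup ↥(fixC σ (ι c))) ↔ (w : ↥(D.group (KK r))) ∈ V := fun w => by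
    rw [hQ, mem_subgroupOf]
  have hback : ∀ w : ↥(fixC σ (ι c)), (∃ i, (w : ↥(D.group (KK r))) ^ r ^ i = 1) → ∃ m ∈ C, ι m = w := by
    rintro w ⟨i, hi⟩
    obtain ⟨h1, h2⟩ := mem_fixC.1 w.2
    obtain ⟨m, hm, hmr⟩ := hidx w h1
    obtain ⟨a, ha⟩ := H469.Exc.mem_of_pow hi hm hmr
    refine ⟨a, ?_, ha⟩
    rw [hcC]
    apply hι
    rw [map_mul, map_mul, ha, h2]
  have hpowV : ∀ w : ↥(fixC σ (ι c)), (w : ↥(D.group (KK r))) ∈ V → ∃ i, (w : ↥(D.group (KK r))) ^ r ^ i = 1 := by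
    intro w hw
    obtain ⟨i, hi⟩ := Q.isPGroup' ⟨w, (hmemQ w).2 hw⟩
    exact ⟨i, congrArg (fun a => ((a : (Q : Subgroup ↥(fixC σ (ι c)))) : ↥(fixC σ (ι c))).1) hi⟩
  -- the Sylow subgroup of `C`
  set Q₀ : Subgroup K₀ := V.comap ι ⊓ C with hQ₀
  have hQ₀p : IsPGroup r Q₀ := by
    rintro ⟨a, ha, haC⟩
    obtain ⟨i, hi⟩ := hpowV ⟨ι a, hmem a haC⟩ ha
    refine ⟨i, Subtype.ext (hι ?_)⟩
    show ι (a ^ r ^ i) = ι 1
    rw [map_pow, map_one]
    exact hi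
  have hmaxQ : ∀ Q' : Subgroup K₀, Q' ≤ C → IsPGroup r Q' → Q₀ ≤ Q' → Q' ≤ Q₀ := by
    intro Q' hQ'C hQ'p hle a ha
    refine ⟨?_, hQ'C ha⟩
    -- the image of `Q'` in `fixC`
    let j : Q' →* ↥(fixC σ (ι c)) := (ι.comp Q'.subtype).codRestrict _ fun m => hmem m (hQ'C m.2)
    have h1 : IsPGroup r j.range := by
      rintro ⟨_, b, rfl⟩
      obtain ⟨i, hi⟩ := hQ'p b
      refine ⟨i, Subtype.ext ?_⟩
      show (j b) ^ r ^ i = 1
      rw [← map_pow, hi, map_one]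
    have h2 : (Q : Subgroup ↥(fixC σ (ι c))) ≤ j.range := by
      intro w hw
      have hw' := (hmemQ w).1 hw
      obtain ⟨m, hm, hmw⟩ := hback w (hpowV w hw')
      have h3 : m ∈ Q' := hle (mem_inf.2 ⟨mem_comap.2 (by rw [hmw]; exact hw'), hm⟩)
      exact ⟨⟨m, h3⟩, Subtype.ext hmw⟩
    have h3 := Q.is_maximal' h1 h2
    have h4 : j ⟨a, ha⟩ ∈ (Q : Subgroup ↥(fixC σ (ι c))) := by
      show j ⟨a, ha⟩ ∈ Q.toSubgroup
      rw [← h3]
      exact ⟨_, rfl⟩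
    exact (hmemQ _).1 h4
  have hcinj := conj_inj hZ
  obtain ⟨Q', hQ'N, hQ'p, hQ'0, hQ'x⟩ := HallOuter.exists_norm_outer (Γ := MulAut K₀) hpr
    (N := C.map MulAut.conj) (R := (radIn C).map MulAut.conj) (x := x) (Q := Q₀.map MulAut.conj)
    (Subgroup.map_mono (radIn_le C)) (by
      rintro _ ⟨m, hm, rfl⟩ _ ⟨a, ha, rfl⟩
      refine ⟨m * a * m⁻¹, radIn_conj_mem hm ha, ?_⟩
      rw [map_mul, map_mul, map_inv]) (isSolvable_map (radIn_solvable C) _) hx (by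
      rintro _ ⟨m, hm, rfl⟩
      exact ⟨x m, hxC m hm, (aut_conj x m).symm⟩) (by
      rintro _ ⟨m, hm, rfl⟩
      refine ⟨m⁻¹ * x m, hR m hm, ?_⟩
      rw [aut_conj, map_mul, map_inv]) (Subgroup.map_mono inf_le_right) (hQ₀p.map _) (by
      intro Q' hQ'N hQ'p hle
      have h1 : Q'.comap MulAut.conj ≤ C := by
        intro a ha
        obtain ⟨b, hb, h2⟩ := hQ'N ha
        rwa [← hcinj h2]
      have h2 := hmaxQ (Q'.comap MulAut.conj) h1 (hQ'p.comap_of_injective _ hcinj) (by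
        intro a ha
        exact hle ⟨a, ha, rfl⟩)
      intro a ha
      obtain ⟨b, hb, rfl⟩ := hQ'N ha
      exact ⟨b, h2 ha, rfl⟩) (by
      intro E hEN hQE hE z hz q hq
      obtain ⟨b, hb, rfl⟩ := hEN hz
      obtain ⟨q, hq', rfl⟩ := hq
      have h1 := hkey ((E.comap MulAut.conj).map ι) (by
          rintro _ ⟨m, hm, rfl⟩
          obtain ⟨m', hm', h2⟩ := hEN hm
          rw [← hcinj h2]
          exact hmem m' hm') (by
          rintro v ⟨hv1, hv2⟩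
          obtain ⟨m, hm, hm'⟩ := hback ⟨v, hv2⟩ (hpowV ⟨v, hv2⟩ hv1)
          exact ⟨m, hQE ⟨m, mem_inf.2 ⟨mem_comap.2 (by rw [hm']; exact hv1), hm⟩, rfl⟩, hm'⟩) (by
          rintro _ ⟨m, hm, rfl⟩
          obtain ⟨a, b, h2⟩ := hE _ hm
          refine ⟨a, b, ?_⟩
          rw [← map_pow, ← map_one MulAut.conj] at h2
          rw [← map_pow, hcinj h2, map_one]) (ι b) ⟨b, hz, rfl⟩
      have h2 := (mem_normalizer_iff.1 h1 (ι q)).1 hq'.1
      refine ⟨b * q * b⁻¹, mem_inf.2 ⟨mem_comap.2 ?_, C.mul_mem (C.mul_mem hb hq'.2) (C.inv_mem hb)⟩, ?_⟩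
      · rw [map_mul, map_mul, map_inv]
        exact h2
      · rw [map_mul, map_mul, map_inv])
  have hQ₀1 : Q₀ ≠ ⊥ := by
    intro h0
    obtain ⟨m, hm, hm'⟩ := hback ⟨u, huC⟩ (hpowV ⟨u, huC⟩ huV)
    have h1 : m ∈ Q₀ := mem_inf.2 ⟨mem_comap.2 (by rw [hm']; exact huV), hm⟩
    rw [h0, mem_bot] at h1
    apply hu1
    have h2 : ι m = u := hm'
    rw [← h2, h1, map_one]
  refine ⟨Q'.comap MulAut.conj, ?_, hQ'p.comap_of_injective _ hcinj, ?_⟩
  · intro h0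
    refine hQ'0 (fun h => hQ₀1 ?_) ?_
    · rwa [Subgroup.map_eq_bot_iff_of_injective _ hcinj] at h
    · rw [eq_bot_iff]
      intro a ha
      obtain ⟨b, hb, rfl⟩ := hQ'N ha
      have h1 : b ∈ Q'.comap MulAut.conj := ha
      rw [h0, mem_bot] at h1
      rw [h1, map_one]
      exact one_mem _
  · intro a ha
    rw [mem_comap] at ha ⊢
    rw [← aut_conj]
    exact hQ'x _ ha

/-- an automorphism of order `p ∤ |K₀|` normalises a Sylow `r`-subgroup -/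
theorem fixR_of_coprime [Finite K₀] {p : ℕ} [hpf : Fact p.Prime] (hd : ¬ p ∣ Nat.card K₀) (hr : r ∣ Nat.card K₀)
    {x : MulAut K₀} (hx : x ^ p = 1) : FixR r x := by
  have hxp : IsPGroup p (zpowers x) := by
    rintro ⟨_, i, rfl⟩
    refine ⟨1, Subtype.ext ?_⟩
    show (x ^ i) ^ p ^ 1 = 1
    rw [pow_one, ← zpow_natCast, ← zpow_mul, mul_comm, zpow_mul, zpow_natCast, hx, one_zpow]
  have h1 : ¬ p ∣ Nat.card (Sylow r K₀) := by
    intro h
    obtain ⟨P⟩ : Nonempty (Sylow r K₀) := inferInstance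
    rw [P.card_eq_index_normalizer] at h
    exact hd (h.trans (Subgroup.index_dvd_card _))
  obtain ⟨P, hP⟩ := hxp.nonempty_fixed_point_of_prime_not_dvd_card (Sylow r K₀) h1
  have hxP : x • P = P := hP ⟨x, mem_zpowers x⟩
  refine ⟨P, ?_, P.isPGroup', fun a ha => ?_⟩
  · intro h0
    have h2 := P.card_eq_multiplicity
    rw [h0, card_bot] at h2
    have h3 : 0 < (Nat.card K₀).factorization r :=
      (Fact.out : r.Prime).factorization_pos_of_dvd Nat.card_pos.ne' hr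
    exact absurd h2 (Nat.one_lt_pow h3.ne' (Fact.out : r.Prime).one_lt).ne
  · have h2 : x a ∈ ((x • P : Sylow r K₀) : Subgroup K₀) := by
      rw [Sylow.pointwise_smul_def]
      exact Subgroup.smul_mem_pointwise_smul _ _ _ ha
    rwa [hxP] at h2

end Cfsg.Agent.H696.OuterRC
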